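import Mathlib

/-!
# Strongly regular graphs: an instance-free form, rank 3 groups, a trace obstruction
-/

set_option autoImplicit false

namespace Cfsg.Lib.Srg

open SimpleGraph MulAction Finset

variable {V W : Type*} {G : SimpleGraph V} {H : SimpleGraph W} {n k l m : ℕ}

/-- Strongly regular graphs, with cardinalities of sets. -/
structure SRG (G : SimpleGraph V) (n k l m : ℕ) : Prop where
  card : Nat.card V = n
  deg : ∀ v, {u | G.Adj v u}.ncard = k
  adj : ∀ v w, G.Adj v w → {u | G.Adj v u ∧ G.Adj w u}.ncard = l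
  nadj : ∀ v w, v ≠ w → ¬G.Adj v w → {u | G.Adj v u ∧ G.Adj w u}.ncard = m

theorem srg_iff [Fintype V] [DecidableRel G.Adj] : G.IsSRGWith n k l m ↔ SRG G n k l m := by
  have h1 : ∀ v, G.degree v = {u | G.Adj v u}.ncard := fun v => by
    rw [← card_neighborSet_eq_degree, ← Nat.card_eq_fintype_card]; rfl
  have h2 : ∀ v w, Fintype.card (G.commonNeighbors v w) = {u | G.Adj v u ∧ G.Adj w u}.ncard := fun v w => by
    rw [← Nat.card_eq_fintype_card]; rfl
  exact ⟨fun h => ⟨Nat.card_eq_fintype_card.trans h.card, fun v => (h1 v).symm.trans (h.regular v),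
      fun v w a => (h2 v w).symm.trans (h.of_adj v w a), fun v w a b => (h2 v w).symm.trans (h.of_not_adj a b)⟩,
    fun h => ⟨Nat.card_eq_fintype_card.symm.trans h.card, fun v => (h1 v).trans (h.deg v),
      fun v w a => (h2 v w).trans (h.adj v w a), fun v w a b => (h2 v w).trans (h.nadj v w a b)⟩⟩

theorem SRG.iso (h : SRG G n k l m) (e : G ≃g H) : SRG H n k l m := by
  have key : ∀ p : W → Prop, {u | p u}.ncard = {u | p (e u)}.ncard := fun p =>
    (Set.ncard_preimage_of_injective_subset_range e.injective (by rw [e.surjective.range_eq]; simp)).symm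
  refine ⟨(Nat.card_congr e.toEquiv).symm.trans h.card, fun v => ?_, fun v w a => ?_, fun v w a b => ?_⟩
  · obtain ⟨v, rfl⟩ := e.surjective v
    simp only [key, e.map_adj_iff, h.deg]
  · obtain ⟨v, rfl⟩ := e.surjective v
    obtain ⟨w, rfl⟩ := e.surjective w
    simp only [key, e.map_adj_iff, h.adj v w (e.map_adj_iff.1 a)]
  · obtain ⟨v, rfl⟩ := e.surjective v
    obtain ⟨w, rfl⟩ := e.surjective w
    simp only [key, e.map_adj_iff, h.nadj v w (fun c => a (congrArg e c)) fun c => b (e.map_adj_iff.2 c)]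

theorem SRG.param [Finite V] (h : SRG G n k l m) (hn : 0 < n) : k * (k - l - 1) = (n - k - 1) * m := by
  classical
  haveI := Fintype.ofFinite V
  exact (srg_iff.2 h).param_eq G hn

/-- An obstruction modulo a prime: a nilpotent matrix has trace zero. -/
theorem SRG.trace [Finite V] (h : SRG G n k l m) {F : Type*} [Field F] (s c : F) (h1 : (k : F) - m + s ^ 2 = 0)
    (h2 : (l : F) - m + 2 * s = 0) (h3 : (m : F) + c ^ 2 * n + 2 * c * k + 2 * s * c = 0) : (n : F) * (s + c) = 0 := by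
  classical
  haveI := Fintype.ofFinite V
  have h' := srg_iff.2 h
  set A := G.adjMatrix F
  set J : Matrix V V F := Matrix.of 1
  have a1 : A * A = (k : F) • 1 + (l : F) • A + (m : F) • (J - 1 - A) := by
    rw [← sq, h'.matrix_eq, ← G.compl_adjMatrix_eq_adjMatrix_compl F,
      show J = _ from (G.one_add_adjMatrix_add_compl_adjMatrix_eq_of_one F).symm]
    simp only [Nat.cast_smul_eq_nsmul, A]
    congr 2
    abel
  have a2 : A * J = (k : F) • J := by ext v w; simp [A, J, h'.regular v]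
  have a3 : J * A = (k : F) • J := by ext v w; simp [A, J, h'.regular w]
  have a4 : J * J = (n : F) • J := by ext v w; simp [J, Matrix.mul_apply, h'.card]
  have a5 : (A + s • 1 + c • J) ^ 2 = 0 := by
    simp only [sq, mul_add, add_mul, Matrix.mul_smul, Matrix.smul_mul, mul_one, one_mul, a1, a2, a3, a4]
    match_scalars
    · linear_combination h1
    · linear_combination h2
    · linear_combination h3
  have a6 := (Matrix.isNilpotent_trace_of_isNilpotent ⟨2, a5⟩).eq_zero
  rw [Matrix.trace_add, Matrix.trace_add, Matrix.trace_smul, Matrix.trace_smul, trace_adjMatrix, Matrix.trace_one,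
    h'.card, show J.trace = n by simp [J, Matrix.trace, h'.card]] at a6
  simp only [smul_eq_mul] at a6
  linear_combination a6

section Rank3

variable {Γ Ω : Type*} [Group Γ] [MulAction Γ Ω]

/-- The orbital of the pair `(a, b)`. -/
def Orb (Γ : Type*) [Group Γ] [MulAction Γ Ω] (a b x y : Ω) : Prop := ∃ g : Γ, g • a = x ∧ g • b = y

theorem Orb.smul {a b x y : Ω} (h : Orb Γ a b x y) (g : Γ) : Orb Γ a b (g • x) (g • y) := by
  obtain ⟨s, rfl, rfl⟩ := h
  exact ⟨g * s, mul_smul _ _ _, mul_smul _ _ _⟩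

theorem orb_smul {a b x y : Ω} (g : Γ) : Orb Γ a b (g • x) (g • y) ↔ Orb Γ a b x y :=
  ⟨fun h => by simpa using h.smul g⁻¹, fun h => h.smul g⟩

theorem orb_base (a b : Ω) : {y | Orb Γ a b a y} = orbit (stabilizer Γ a) b :=
  Set.ext fun _ => ⟨fun ⟨g, h1, h2⟩ => ⟨⟨g, h1⟩, h2⟩, fun ⟨g, h⟩ => ⟨g, g.2, h⟩⟩

theorem ncard_smul (g : Γ) (p : Ω → Prop) : {y | p y}.ncard = {y | p (g • y)}.ncard :=
  (Set.ncard_preimage_of_injective_subset_range (MulAction.injective g)
    (by rw [(MulAction.surjective g).range_eq]; simp)).symm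

theorem ncard_orb [IsPretransitive Γ Ω] (a b x : Ω) :
    {y | Orb Γ a b x y}.ncard = (orbit (stabilizer Γ a) b).ncard := by
  obtain ⟨g, rfl⟩ := exists_smul_eq Γ a x
  simp only [ncard_smul g, orb_smul, orb_base]

theorem orbit_eq_singleton (a : Ω) : orbit (stabilizer Γ a) a = {a} :=
  Set.ext fun _ => ⟨fun ⟨g, h⟩ => h.symm.trans g.2, fun h => h ▸ mem_orbit_self _⟩

/-- The orbital graph of a rank 3 group with distinct subdegrees is strongly regular. -/
theorem exists_srg [Finite Ω] [IsPretransitive Γ Ω] {a b c : Ω} {k' : ℕ} (hn : Nat.card Ω = n)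
    (hb : (orbit (stabilizer Γ a) b).ncard = k) (hc : (orbit (stabilizer Γ a) c).ncard = k') (h1 : k ≠ 1) (h2 : k' ≠ 1)
    (h3 : k ≠ k') (h4 : n = 1 + k + k') :
    ∃ (G : SimpleGraph Ω) (l m : ℕ), SRG G n k l m ∧ (∀ (g : Γ) x y, G.Adj (g • x) (g • y) ↔ G.Adj x y) ∧
      ∀ x y, G.Adj x y ↔ Orb Γ a b x y := by
  classical
  haveI := Fintype.ofFinite Ω
  have ne : ∀ {b : Ω}, (orbit (stabilizer Γ a) b).ncard ≠ 1 → ∀ x, ¬Orb Γ a b x x := fun h x ⟨g, e1, e2⟩ => by
    rw [← MulAction.injective g (e1.trans e2.symm), orbit_eq_singleton, Set.ncard_singleton] at h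
    exact h rfl
  have dis : ∀ x y, Orb Γ a b x y → ¬Orb Γ a c x y := fun x y ⟨g, e1, e2⟩ ⟨s, e3, e4⟩ => by
    have : c ∈ orbit (stabilizer Γ a) b :=
      ⟨⟨s⁻¹ * g, by rw [mem_stabilizer_iff, mul_smul, e1, inv_smul_eq_iff, e3]⟩, by
        change (s⁻¹ * g) • b = c
        rw [mul_smul, e2, inv_smul_eq_iff, e4]⟩
    exact h3 (by rw [← hb, ← hc, orbit_eq_iff.2 this])
  have tri : ∀ x y, x = y ∨ Orb Γ a b x y ∨ Orb Γ a c x y := fun x y => by
    have : insert x ({y | Orb Γ a b x y} ∪ {y | Orb Γ a c x y}) = Set.univ := by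
      refine Set.eq_of_subset_of_ncard_le (Set.subset_univ _) ?_
      rw [Set.ncard_insert_of_notMem (by rintro (h | h); exacts [ne (hb ▸ h1) x h, ne (hc ▸ h2) x h]),
        Set.ncard_union_eq (s := {y | Orb Γ a b x y}) (t := {y | Orb Γ a c x y}) (Set.disjoint_left.2 (dis x)), ncard_orb, ncard_orb, hb, hc, Set.ncard_univ]
      omega
    exact (Set.eq_univ_iff_forall.1 this y).imp_left Eq.symm
  have sym : Orb Γ a b b a := ((tri b a).resolve_left fun e => ne (hb ▸ h1) a ⟨1, one_smul _ _, e ▸ one_smul _ _⟩).resolve_right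
    fun ⟨g, e1, e2⟩ => h3 (by
      have e : ∀ x y, Orb Γ a c y x ↔ Orb Γ a b x y := fun x y =>
        ⟨fun ⟨s, e3, e4⟩ => ⟨s * g⁻¹, by rw [mul_smul, inv_smul_eq_iff.2 e2.symm, e4],
          by rw [mul_smul, inv_smul_eq_iff.2 e1.symm, e3]⟩,
        fun ⟨s, e3, e4⟩ => ⟨s * g, by rw [mul_smul, e1, e4], by rw [mul_smul, e2, e3]⟩⟩
      have := card_mul_eq_card_mul (Orb Γ a b) (s := univ) (t := univ) (m := k) (n := k')
        (fun x _ => by rw [← hb, ← ncard_orb a b x, ← Set.ncard_coe_finset]; congr 1; ext; simp [bipartiteAbove])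
        (fun x _ => by rw [← hc, ← ncard_orb a c x, ← Set.ncard_coe_finset]; congr 1; ext; simp [bipartiteBelow, e])
      exact Nat.eq_of_mul_eq_mul_left (card_pos.2 ⟨a, mem_univ a⟩) this)
  let G : SimpleGraph Ω :=
    { Adj := Orb Γ a b
      symm := ⟨by rintro _ _ ⟨g, rfl, rfl⟩; exact sym.smul g⟩
      loopless := ⟨ne (hb ▸ h1)⟩ }
  have inv : ∀ (g : Γ) (x y : Ω), {u | G.Adj (g • x) u ∧ G.Adj (g • y) u}.ncard = {u | G.Adj x u ∧ G.Adj y u}.ncard :=
    fun g x y => by simp only [ncard_smul g (fun u => G.Adj (g • x) u ∧ G.Adj (g • y) u), G, orb_smul]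
  refine ⟨G, {u | G.Adj a u ∧ G.Adj b u}.ncard, {u | G.Adj a u ∧ G.Adj c u}.ncard, ⟨hn, fun v => (ncard_orb a b v).trans hb, ?_, fun v w e1 e2 => ?_⟩, fun g x y => orb_smul g,
    fun _ _ => Iff.rfl⟩
  · rintro _ _ ⟨g, rfl, rfl⟩
    exact inv g a b
  · obtain ⟨g, rfl, rfl⟩ := ((tri v w).resolve_left e1).resolve_left e2
    exact inv g a c

/-- The action on an invariant graph. -/
def toAut {G : SimpleGraph Ω} (h : ∀ (g : Γ) x y, G.Adj (g • x) (g • y) ↔ G.Adj x y) : Γ →* (G ≃g G) where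
  toFun g := ⟨MulAction.toPerm g, h g _ _⟩
  map_one' := RelIso.ext fun x => one_smul Γ x
  map_mul' g s := RelIso.ext fun x => mul_smul g s x

theorem toAut_apply {G : SimpleGraph Ω} (h : ∀ (g : Γ) x y, G.Adj (g • x) (g • y) ↔ G.Adj x y) (g : Γ) (x : Ω) :
    toAut h g x = g • x := rfl

end Rank3

/-- Automorphism groups of isomorphic graphs. -/
def autCongr (e : G ≃g H) : (G ≃g G) ≃* (H ≃g H) where
  toFun f := (e.symm.trans f).trans e
  invFun f := (e.trans f).trans e.symm
  left_inv f := RelIso.ext fun x => by simp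
  right_inv f := RelIso.ext fun x => by simp
  map_mul' f g := RelIso.ext fun x => by simp

/-- A subgroup of index 2 equals any simple subgroup of the same order. -/
theorem eq_of_index_two {A : Type*} [Group A] [Finite A] {N S : Subgroup A} [IsSimpleGroup S]
    (hN : Nat.card A = 2 * Nat.card N) (h : Nat.card N = Nat.card S) (h2 : 2 < Nat.card S) : S = N := by
  have h1 : N.index = 2 := Nat.eq_of_mul_eq_mul_right (Nat.card_pos (α := N)) (N.index_mul_card.trans hN)
  haveI := N.normal_of_index_eq_two h1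
  refine Subgroup.eq_of_le_of_card_ge ?_ h.le
  rcases IsSimpleGroup.eq_bot_or_eq_top_of_normal (N.subgroupOf S) inferInstance with e | e
  · have h3 : N.relIndex S ≤ 2 := h1 ▸ Nat.le_of_dvd (by omega) (Subgroup.relIndex_dvd_index_of_normal N S)
    rw [Subgroup.relIndex, e, Subgroup.index_bot] at h3
    omega
  · exact Subgroup.subgroupOf_eq_top.1 e

end Cfsg.Lib.Srg
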