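import Cfsg.Agent.Lib.Srg.Basic
import Cfsg.Agent.S0410
import Cfsg.Agent.S0414

/-!
# The strongly regular graph with parameters `(100, 22, 0, 6)`
-/

set_option autoImplicit false

namespace Cfsg.Lib.Srg

open SimpleGraph MulAction Finset

variable {V W : Type*} {G : SimpleGraph V} {H : SimpleGraph W}

theorem SRG.params100 [Finite V] {l m : ℕ} (h : SRG G 100 22 l m) : l = 0 ∧ m = 6 := by
  have h1 := h.param (by norm_num)
  obtain ⟨a⟩ := (Nat.card_pos_iff.1 (h.card ▸ by norm_num : 0 < Nat.card V)).1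
  obtain ⟨b, hb⟩ := Set.nonempty_of_ncard_ne_zero (by rw [h.deg a]; norm_num : {u | G.Adj a u}.ncard ≠ 0)
  have h2 : l < 22 := by
    rw [← h.adj a b hb, ← h.deg a]
    exact Set.ncard_lt_ncard ⟨fun u hu => hu.1, fun e => (e hb).2.ne rfl⟩
  obtain h3 | ⟨rfl, rfl⟩ | ⟨rfl, rfl⟩ | ⟨rfl, rfl⟩ : (l = 0 ∧ m = 6) ∨ (l = 7 ∧ m = 4) ∨ (l = 14 ∧ m = 2) ∨
      (l = 21 ∧ m = 0) := by omega
  · exact h3
  · exact absurd (h.trace (F := ZMod 3) 0 (-1) (by decide) (by decide) (by decide)) (by decide)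
  · obtain ⟨c, hc, h4⟩ := Set.exists_mem_notMem_of_ncard_lt_ncard (s := insert b {u | G.Adj a u ∧ G.Adj b u})
      (t := {u | G.Adj a u}) ((Set.ncard_insert_le _ _).trans_lt (by rw [h.adj a b hb, h.deg]; norm_num))
    rw [Set.mem_insert_iff, not_or] at h4
    have h5 := Set.ncard_union_add_ncard_inter {u | G.Adj a u ∧ G.Adj b u} {u | G.Adj a u ∧ G.Adj c u}
    have h6 := Set.ncard_le_ncard (s := {u | G.Adj a u ∧ G.Adj b u} ∪ {u | G.Adj a u ∧ G.Adj c u})
      (t := {u | G.Adj a u}) (by rintro u (e | e); exacts [e.1, e.1])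
    have h7 := Set.ncard_le_ncard (s := {u | G.Adj a u ∧ G.Adj b u} ∩ {u | G.Adj a u ∧ G.Adj c u})
      (t := {u | G.Adj b u ∧ G.Adj c u}) fun u e => ⟨e.1.2, e.2.2⟩
    rw [h.nadj b c (Ne.symm h4.1) fun e => h4.2 ⟨hc, e⟩] at h7
    rw [h.adj a b hb, h.adj a c hc] at h5
    rw [h.deg] at h6
    omega
  · haveI : Fact (Nat.Prime 23) := ⟨by norm_num⟩
    exact absurd (h.trace (F := ZMod 23) 1 0 (by norm_num; rfl) (by norm_num; rfl) (by norm_num))
      (by norm_num; exact (show ¬((100 : ℕ) : ZMod 23) = 0 by rw [ZMod.natCast_eq_zero_iff]; norm_num))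

theorem SRG.not_adj {n k m : ℕ} [Finite V] (h : SRG G n k 0 m) {a b c : V} (h1 : G.Adj a b) (h2 : G.Adj a c) :
    ¬G.Adj b c := fun h3 =>
  Set.eq_empty_iff_forall_notMem.1 ((Set.ncard_eq_zero (Set.toFinite _)).1 (h.adj a b h1)) c ⟨h2, h3⟩

/-- Moments of the number of neighbours in an independent set. -/
theorem SRG.moments {n k l m : ℕ} [Fintype V] [DecidableRel G.Adj] (h : SRG G n k l m) (B : Finset V)
    (hB : ∀ p ∈ B, ∀ q ∈ B, ¬G.Adj p q) : ∑ u, (#(B.filter (G.Adj u)) : ℤ) = #B * k ∧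
      ∑ u, (#(B.filter (G.Adj u)) : ℤ) ^ 2 = #B * (k + (#B - 1) * m) := by
  classical
  have e : ∀ p : V → Prop, ∀ [DecidablePred p], (∑ u, if p u then 1 else 0 : ℤ) = {u | p u}.ncard := fun p _ => by
    rw [sum_boole, ← Set.ncard_coe_finset, coe_filter_univ]
  simp only [card_filter, Nat.cast_sum, Nat.cast_ite, Nat.cast_one, Nat.cast_zero]
  constructor
  · rw [sum_comm, sum_congr rfl (g := fun _ => (k : ℤ)) fun p _ => by rw [e, ← h.deg p]; simp only [adj_comm],
      sum_const, nsmul_eq_mul]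
  · simp only [sq, sum_mul_sum, ite_zero_mul_ite_zero, mul_one]
    rw [sum_comm, ← nsmul_eq_mul, ← sum_const]
    refine sum_congr rfl fun p hp => ?_
    rw [sum_comm, ← add_sum_erase _ _ hp, sum_congr (s₁ := B.erase p) rfl (g := fun _ => (m : ℤ)) fun q hq => by
      rw [e, ← h.nadj p q (ne_of_mem_erase hq).symm (hB p hp q (mem_of_mem_erase hq))]
      simp only [adj_comm],
      sum_const, card_erase_of_mem hp, nsmul_eq_mul, Nat.cast_sub (card_pos.2 ⟨p, hp⟩), e, ← h.deg p]
    simp only [and_self, adj_comm, Nat.cast_one]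

theorem SRG.triple [Finite V] (h : SRG G 100 22 0 6) {v w u : V} (h1 : v ≠ w) (h2 : ¬G.Adj v w) (h3 : u ≠ v)
    (h4 : u ≠ w) (h5 : ¬G.Adj v u) (h6 : ¬G.Adj w u) : {p | G.Adj v p ∧ G.Adj w p ∧ G.Adj u p}.ncard = 2 := by
  classical
  haveI := Fintype.ofFinite V
  set B := univ.filter fun p => G.Adj v p ∧ G.Adj w p with hB
  have b1 : #B = 6 := by rw [← h.nadj v w h1 h2, ← Set.ncard_coe_finset, coe_filter_univ]
  obtain ⟨m1, m2⟩ := h.moments B fun p hp q hq => h.not_adj (mem_filter.1 hp).2.1 (mem_filter.1 hq).2.1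
  let x : V → ℤ := fun u => #(B.filter (G.Adj u))
  have s1 : ∑ u, (x u - 2) ^ 2 = 184 := by
    simp only [x, sub_sq, sum_add_distrib, sum_sub_distrib, ← sum_mul, ← mul_sum, sum_const, card_univ, m1, m2, b1,
      ← Nat.card_eq_fintype_card, h.card]
    norm_num
  set N := univ.filter fun p => G.Adj v p ∨ G.Adj w p
  have n1 : #N = 38 := by
    have := Set.ncard_union_add_ncard_inter {p | G.Adj v p} {p | G.Adj w p}
    rw [h.deg, h.deg, ← Set.setOf_and, h.nadj v w h1 h2] at this
    rw [← Set.ncard_coe_finset, coe_filter_univ]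
    exact Nat.add_right_cancel (m := 6) this
  have s2 : ∑ u ∈ N, (x u - 2) ^ 2 = 152 := by
    rw [sum_congr rfl (g := fun _ => 4) fun p hp => ?_, sum_const, n1]; · rfl
    have : B.filter (G.Adj p) = ∅ := filter_eq_empty_iff.2 fun q hq => by
      rcases (mem_filter.1 hp).2 with e | e
      exacts [h.not_adj e (mem_filter.1 hq).2.1, h.not_adj e (mem_filter.1 hq).2.2]
    simp [x, this]
  have xv : x v = 6 := by simp only [x]; rw [filter_true_of_mem fun p hp => (mem_filter.1 hp).2.1, b1]; rfl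
  have xw : x w = 6 := by simp only [x]; rw [filter_true_of_mem fun p hp => (mem_filter.1 hp).2.2, b1]; rfl
  have s3 := sum_le_sum_of_subset_of_nonneg (subset_univ (insert u (insert v (insert w N)))) (f := fun u => (x u - 2) ^ 2)
    fun _ _ _ => sq_nonneg _
  rw [sum_insert (by simp [N, h3, h4, h5, h6]), sum_insert (by simp [N, h1, h2, G.adj_comm w v]),
    sum_insert (by simp [N, h2]), s1, s2, xv, xw] at s3
  have s4 : x u = 2 := by nlinarith [sq_nonneg (x u - 2)]
  have s5 : #(B.filter (G.Adj u)) = 2 := Nat.cast_injective (R := ℤ) s4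
  rw [← s5, ← Set.ncard_coe_finset]
  congr 1
  ext p
  simp [B, and_assoc]

theorem pb_adj {α : Type*} {B : Set (Finset α)} :
    (∀ p, (pointBlockGraph B).Adj none (some (.inl p))) ∧ (∀ b, ¬(pointBlockGraph B).Adj none (some (.inr b))) ∧
    (∀ p q, ¬(pointBlockGraph B).Adj (some (.inl p)) (some (.inl q))) ∧
    (∀ p b, (pointBlockGraph B).Adj (some (.inl p)) (some (.inr b)) ↔ p ∈ (b : Finset α)) ∧
    ∀ b c, (pointBlockGraph B).Adj (some (.inr b)) (some (.inr c)) ↔ (blockGraph B).Adj b c := by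
  simp [pointBlockGraph, pointBlockRel, blockGraph]

theorem block_adj {α : Type*} {B : Set (Finset α)} {b c : B} :
    (blockGraph B).Adj b c ↔ b ≠ c ∧ Disjoint (b : Finset α) c := by
  simp only [blockGraph, fromRel_adj, disjoint_comm (a := (c : Finset α)), or_self]

/-- An isomorphism from a point-block graph, checked on the kinds of vertices. -/
def pbIso {α : Type*} {B : Set (Finset α)} (e : Option (α ⊕ B) ≃ V)
    (h1 : ∀ p, G.Adj (e none) (e (some (.inl p)))) (h2 : ∀ b, ¬G.Adj (e none) (e (some (.inr b))))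
    (h3 : ∀ p q, ¬G.Adj (e (some (.inl p))) (e (some (.inl q))))
    (h4 : ∀ p b, G.Adj (e (some (.inl p))) (e (some (.inr b))) ↔ p ∈ (b : Finset α))
    (h5 : ∀ b c, G.Adj (e (some (.inr b))) (e (some (.inr c))) ↔ (blockGraph B).Adj b c) : pointBlockGraph B ≃g G :=
  ⟨e, by
    obtain ⟨a1, a2, a3, a4, a5⟩ := pb_adj (B := B)
    rintro (_ | p | b) (_ | q | c)
    · simp
    · simp only [h1, a1]
    · simp only [h2, a2]
    · rw [adj_comm, adj_comm _ _ none]; simp only [h1, a1]
    · simp only [h3, a3]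
    · simp only [h4, a4]
    · rw [adj_comm, adj_comm _ (some _) none]; simp only [h2, a2]
    · rw [adj_comm, adj_comm _ (some _) (some (Sum.inl q))]; simp only [h4, a4]
    · simp only [h5, a5]⟩

theorem SRG.exists_steiner [Finite V] (h : SRG G 100 22 0 6) (v : V) :
    ∃ B : Set (Finset {p // G.Adj v p}), IsSteinerSystem 3 6 B ∧ ∃ e : pointBlockGraph B ≃g G, e none = v := by
  classical
  haveI := Fintype.ofFinite V
  let blk : {u // u ≠ v ∧ ¬G.Adj v u} → Finset {p // G.Adj v p} := fun u => univ.filter fun p => G.Adj u p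
  have key : ∀ q : V → Prop, ∀ [DecidablePred fun p : {p // G.Adj v p} => q p],
      #(univ.filter fun p : {p // G.Adj v p} => q p) = {p | G.Adj v p ∧ q p}.ncard := fun q _ => by
    rw [← Set.ncard_coe_finset, ← Set.ncard_image_of_injective _ Subtype.val_injective]
    congr 1
    ext p
    simp [and_comm]
  have b1 : ∀ u, #(blk u) = 6 := fun u => (key _).trans (h.nadj v u u.2.1.symm u.2.2)
  have b2 : ∀ u w, u ≠ w → ¬G.Adj u.1 w.1 → #(blk u ∩ blk w) = 2 := fun u w e1 e2 => by
    rw [← filter_and]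
    exact (key fun p => G.Adj u p ∧ G.Adj w p).trans (h.triple u.2.1.symm u.2.2 w.2.1 (Subtype.val_injective.ne e1.symm) w.2.2 e2)
  have b3 : ∀ u w, G.Adj u.1 w.1 → Disjoint (blk u) (blk w) := fun u w e =>
    disjoint_left.2 fun p h1 h2 => h.not_adj e (mem_filter.1 h1).2 (mem_filter.1 h2).2
  have b4 : ∀ u w, 3 ≤ #(blk u ∩ blk w) → u = w := fun u w e => by
    by_contra e1
    by_cases e2 : G.Adj u.1 w.1
    · rw [disjoint_iff_inter_eq_empty.1 (b3 u w e2)] at e; simp at e
    · rw [b2 u w e1 e2] at e; omega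
  have hi : Function.Injective blk := fun u w e => b4 u w (by rw [e, inter_self, b1]; norm_num)
  have c1 : Fintype.card {p // G.Adj v p} = 22 := by rw [← Nat.card_eq_fintype_card]; exact h.deg v
  have c2 : Fintype.card {u // u ≠ v ∧ ¬G.Adj v u} = 77 := by
    have := Set.ncard_add_ncard_compl (insert v {u | G.Adj v u})
    rw [Set.ncard_insert_of_notMem (s := {u | G.Adj v u}) (G.irrefl (v := v)), h.deg, h.card] at this
    rw [← Nat.card_eq_fintype_card]
    refine Eq.trans (congrArg Set.ncard (?_ : {u | u ≠ v ∧ ¬G.Adj v u} = (insert v {u | G.Adj v u})ᶜ)) (by omega)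
    ext u
    simp
  have b5 : (univ.biUnion fun u => powersetCard 3 (blk u)) = powersetCard 3 univ :=
    eq_of_subset_of_card_le (biUnion_subset.2 fun u _ => powersetCard_mono (subset_univ _)) (by
      rw [card_biUnion fun u _ w _ e => disjoint_left.2 fun s h1 h2 => e (b4 u w (by
        rw [← (mem_powersetCard.1 h1).2]
        exact card_le_card (subset_inter (mem_powersetCard.1 h1).1 (mem_powersetCard.1 h2).1)))]
      simp only [card_powersetCard, b1, sum_const, card_univ, c1, c2]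
      decide)
  let eb := Equiv.ofInjective blk hi
  have hb : ∀ b, blk (eb.symm b) = b := fun b => Equiv.apply_ofInjective_symm hi b
  let f : Option ({p // G.Adj v p} ⊕ Set.range blk) → V := fun o => o.elim v (Sum.elim (↑) fun b => eb.symm b)
  have hf : Function.Bijective f := (Fintype.bijective_iff_surjective_and_card f).2 ⟨fun u => by
      by_cases e1 : u = v
      · exact ⟨none, e1.symm⟩
      by_cases e2 : G.Adj v u
      · exact ⟨some (.inl ⟨u, e2⟩), rfl⟩
      · exact ⟨some (.inr (eb ⟨u, e1, e2⟩)), congrArg Subtype.val (eb.symm_apply_apply _)⟩, by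
    rw [Fintype.card_option, Fintype.card_sum, c1, ← Fintype.card_congr eb, c2, ← Nat.card_eq_fintype_card, h.card]⟩
  refine ⟨Set.range blk, ⟨by rintro _ ⟨u, rfl⟩; exact b1 u, fun s hs => ?_⟩, pbIso (Equiv.ofBijective f hf)
    (fun p => p.2) (fun b => (eb.symm b).2.2) (fun p q => h.not_adj p.2 q.2) (fun p b => ?_) fun b c => ?_, rfl⟩
  · obtain ⟨u, -, hu⟩ := mem_biUnion.1 (b5 ▸ mem_powersetCard.2 ⟨subset_univ s, hs⟩)
    refine ⟨blk u, ⟨⟨u, rfl⟩, (mem_powersetCard.1 hu).1⟩, ?_⟩
    rintro _ ⟨⟨w, rfl⟩, hw⟩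
    rw [b4 w u (hs ▸ card_le_card (subset_inter hw (mem_powersetCard.1 hu).1))]
  · rw [← hb b, mem_filter, adj_comm]; simp [f]
  · rw [block_adj, ← hb b, ← hb c]
    refine ⟨fun e => ⟨fun e1 => e.ne (by rw [e1]), b3 _ _ e⟩, fun e => by_contra fun e1 => ?_⟩
    have := b2 _ _ (eb.symm.injective.ne e.1) e1
    rw [disjoint_iff_inter_eq_empty.1 e.2] at this
    simp at this

section Iso

variable {α β : Type*} [DecidableEq β] {B : Set (Finset α)} {B' : Set (Finset β)}

/-- The bijection of blocks. -/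
noncomputable def blkEquiv (e : α ≃ β) (h : (fun b => b.image e) '' B = B') : B ≃ B' :=
  (Equiv.Set.image _ B (image_injective e.injective)).trans (Equiv.setCongr h)

theorem coe_blkEquiv (e : α ≃ β) (h : (fun b => b.image e) '' B = B') (b : B) :
    (blkEquiv e h b : Finset β) = (b : Finset α).image e := rfl

/-- The isomorphism of point-block graphs. -/
noncomputable def pbCongr (e : α ≃ β) (h : (fun b => b.image e) '' B = B') : pointBlockGraph B ≃g pointBlockGraph B' :=
  pbIso (Equiv.optionCongr (e.sumCongr (blkEquiv e h))) (fun _ => pb_adj.1 _) (fun _ => pb_adj.2.1 _)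
    (fun _ _ => pb_adj.2.2.1 _ _) (fun p b => (pb_adj.2.2.2.1 _ _).trans e.injective.mem_finset_image)
    fun b c => (pb_adj.2.2.2.2 _ _).trans (by
      rw [block_adj, block_adj, coe_blkEquiv, coe_blkEquiv, disjoint_image e.injective, (blkEquiv e h).injective.ne_iff])

end Iso

theorem SRG.exists_iso [Finite V] (h : SRG G 100 22 0 6) (v : V) {α : Type*} [Fintype α] (hα : Fintype.card α = 22)
    {B : Set (Finset α)} (hB : IsSteinerSystem 3 6 B) : ∃ e : pointBlockGraph B ≃g G, e none = v := by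
  classical
  haveI := Fintype.ofFinite V
  obtain ⟨B', h1, e, he⟩ := h.exists_steiner v
  obtain ⟨f, hf⟩ := Agent.S0410.result hα (Nat.card_eq_fintype_card.symm.trans (h.deg v)) hB h1
  exact ⟨(pbCongr f hf).trans e, he⟩

theorem SRG.unique100 [Finite V] [Finite W] (h : SRG G 100 22 0 6) (h' : SRG H 100 22 0 6) (v : V) (w : W) :
    ∃ e : G ≃g H, e v = w := by
  haveI := Fintype.ofFinite V
  classical
  obtain ⟨B, h1, e, he⟩ := h.exists_steiner v
  obtain ⟨e', rfl⟩ := h'.exists_iso w (Nat.card_eq_fintype_card.symm.trans (h.deg _)) h1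
  exact ⟨e.symm.trans e', congrArg e' (e.symm_apply_eq.2 he.symm)⟩

/-- The stabiliser of the extra vertex. -/
abbrev stabN {α : Type*} (B : Set (Finset α)) : Subgroup (pointBlockGraph B ≃g pointBlockGraph B) :=
  stabilizer (pointBlockGraph B ≃g pointBlockGraph B) (none : Option (α ⊕ B))

theorem card_stabilizer_none {α : Type*} [Fintype α] [DecidableEq α] (B : Set (Finset α)) :
    Nat.card (setSystemAut B) = Nat.card (stabN B) := by
  obtain ⟨a1, a2, a3, a4, a5⟩ := pb_adj (B := B)
  refine Nat.card_eq_of_bijective (fun s => ⟨pbCongr (s : Equiv.Perm α) s.2, rfl⟩) ⟨fun s t e => ?_, fun f => ?_⟩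
  · exact Subtype.ext (Equiv.ext fun p => Sum.inl.inj (Option.some.inj
      (congrArg (fun f : stabN B => f.1 (some (.inl p))) e)))
  · have k1 : ∀ f : stabN B, ∀ p, ∃ q,
        f.1 (some (.inl p)) = some (.inl q) := fun f p => by
      have := f.1.map_adj_iff.2 (a1 p)
      rw [show f.1 none = none from f.2] at this
      generalize f.1 (some (.inl p)) = o at this
      rcases o with _ | q | b
      exacts [absurd this (by simp), ⟨q, rfl⟩, absurd this (a2 b)]
    have k2 : ∀ f : stabN B, ∀ b, ∃ c,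
        f.1 (some (.inr b)) = some (.inr c) := fun f b => by
      have h1 := mt f.1.map_adj_iff.1 (a2 b)
      have h2 := f.1.injective.ne (Option.some_ne_none (.inr b))
      rw [show f.1 none = none from f.2] at h1 h2
      generalize f.1 (some (.inr b)) = o at h1 h2
      rcases o with _ | q | b
      exacts [absurd rfl h2, absurd (a1 q) h1, ⟨b, rfl⟩]
    choose s hs using k1 f
    let σ := Equiv.ofBijective s (Finite.injective_iff_bijective.1 fun p q e =>
      Sum.inl.inj (Option.some.inj (f.1.injective (by rw [hs, hs, e]))))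
    have k3 : ∀ b c, f.1 (some (.inr b)) = some (.inr c) → (b : Finset α).image σ = c := fun b c e => by
      ext q
      obtain ⟨p, rfl⟩ := σ.surjective q
      rw [σ.injective.mem_finset_image, ← a4, ← a4, ← e, ← f.1.map_adj_iff, hs]; rfl
    have k4 : (fun b => b.image σ) '' B = B := by
      refine Set.Subset.antisymm ?_ fun c hc => ?_
      · rintro _ ⟨b, hb, rfl⟩
        obtain ⟨c, e⟩ := k2 f ⟨b, hb⟩
        exact Set.mem_of_eq_of_mem (k3 _ _ e) c.2
      · obtain ⟨b, e⟩ := k2 f⁻¹ ⟨c, hc⟩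
        exact ⟨b, b.2, k3 b ⟨c, hc⟩ (by rw [← e]; exact f.1.apply_symm_apply _)⟩
    refine ⟨⟨σ, k4⟩, Subtype.ext (RelIso.ext ?_)⟩
    rintro (_ | p | b)
    · exact Eq.symm f.2
    · exact (hs p).symm
    · obtain ⟨c, e⟩ := k2 f b
      exact (congrArg (fun c => some (Sum.inr c)) (Subtype.ext (k3 b c e))).trans e.symm

theorem SRG.card_aut100 [Finite V] (h : SRG G 100 22 0 6) : Nat.card (G ≃g G) = 88704000 := by
  classical
  haveI := Fintype.ofFinite V
  obtain ⟨v⟩ := (Nat.card_pos_iff.1 (h.card ▸ by norm_num : 0 < Nat.card V)).1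
  obtain ⟨B, h1, e, -⟩ := h.exists_steiner v
  have h2 := h.iso e.symm
  haveI : IsPretransitive (pointBlockGraph B ≃g pointBlockGraph B) _ := ⟨fun x y => h2.unique100 h2 x y⟩
  rw [← Nat.card_congr (autCongr e).toEquiv, ← (stabN B).index_mul_card,
    index_stabilizer_of_transitive, h2.card, (card_stabilizer_none B).symm.trans
      (Agent.S0414.result (Nat.card_eq_fintype_card.symm.trans (h.deg v)) h1).1]

end Cfsg.Lib.Srg
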