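import Cfsg.Agent.Lib.Srg.HS
import Cfsg.Agent.Lib.Leech.Orders
import Cfsg.Agent.S0356

/-!
# The Higman–Sims graph and the Higman–Sims group
-/

set_option autoImplicit false

namespace Cfsg.Lib.Srg

open SimpleGraph MulAction Cfsg.Lib.Leech Cfsg.Spor

theorem ncard_orbit_sub {A X : Type*} [Group A] [MulAction A X] (H : Subgroup A) (x : X) (b : orbit H x) :
    (orbit (stabilizer H (⟨x, mem_orbit_self x⟩ : orbit H x)) b).ncard = (orbit ↥(H ⊓ stabilizer A x) b.1).ncard := by
  rw [← Set.ncard_image_of_injective _ Subtype.val_injective]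
  congr 1
  ext y
  constructor
  · rintro ⟨_, ⟨g, rfl⟩, rfl⟩
    exact ⟨⟨g.1, g.1.2, congrArg Subtype.val g.2⟩, rfl⟩
  · rintro ⟨g, rfl⟩
    exact ⟨_, ⟨⟨⟨g.1, g.2.1⟩, Subtype.ext g.2.2⟩, rfl⟩, rfl⟩

/-- A simple group moving a vertex acts faithfully. -/
theorem toAut_injective {Γ Ω : Type*} [Group Γ] [IsSimpleGroup Γ] [MulAction Γ Ω] {G : SimpleGraph Ω}
    (h : ∀ (g : Γ) x y, G.Adj (g • x) (g • y) ↔ G.Adj x y) {g : Γ} {x : Ω} (hx : g • x ≠ x) :
    Function.Injective (toAut h) := (MonoidHom.ker_eq_bot_iff _).1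
  ((IsSimpleGroup.eq_bot_or_eq_top_of_normal _ inferInstance).resolve_right fun e =>
    hx (congrArg (fun f : G ≃g G => f x) (MonoidHom.mem_ker.1 (e.ge (Subgroup.mem_top g)))))

theorem exists_hs : ∃ G : SimpleGraph (orbit hs (-leechU)), SRG G 100 22 0 6 ∧
    ∃ φ : hs →* (G ≃g G), Function.Injective φ := by
  have h := m22_b_orbits.1
  have h0 := m22_b_reps
  simp only [m22_b_L, List.forall_mem_cons, List.not_mem_nil, false_imp_iff, implies_true, and_true] at h h0
  obtain ⟨-, h1, h2⟩ := h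
  have hn : Nat.card (orbit hs (-leechU)) = 100 := by rw [Nat.card_coe_set_eq, orbit_hs_U.1, orbit_hs_U.2]
  haveI : Finite (orbit hs (-leechU)) := Nat.finite_of_card_ne_zero (by rw [hn]; norm_num)
  obtain ⟨G, l, m, a1, a2, -⟩ := exists_srg (Γ := hs) (a := (⟨_, mem_orbit_self _⟩ : orbit hs (-leechU)))
    (b := ⟨_, orbit_hs_U.1 ▸ h0.2.1.1⟩) (c := ⟨_, orbit_hs_U.1 ▸ h0.2.2.1⟩) hn
    (by rw [ncard_orbit_sub, hs_inf_negU, h1.1, h1.2]) (by rw [ncard_orbit_sub, hs_inf_negU, h2.1, h2.2])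
    (by norm_num) (by norm_num) (by norm_num) (by norm_num)
  obtain ⟨rfl, rfl⟩ := a1.params100
  haveI := simple_hs
  haveI : Nontrivial (orbit hs (-leechU)) := Finite.one_lt_card_iff_nontrivial.1 (by rw [hn]; norm_num)
  obtain ⟨x, y, e⟩ := exists_pair_ne (orbit hs (-leechU))
  obtain ⟨g, rfl⟩ := exists_smul_eq hs x y
  exact ⟨G, a1, _, toAut_injective a2 e.symm⟩

theorem SRG.exists_hs {V : Type*} [Finite V] {G : SimpleGraph V} (h : SRG G 100 22 0 6) :
    ∃ φ : hs →* (G ≃g G), Function.Injective φ := by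
  obtain ⟨G0, h0, φ, hφ⟩ := Srg.exists_hs
  haveI : Finite (orbit hs (-leechU)) := Nat.finite_of_card_ne_zero (by rw [h0.card]; norm_num)
  obtain ⟨v⟩ := (Nat.card_pos_iff.1 (h.card ▸ by norm_num : 0 < Nat.card V)).1
  obtain ⟨e, -⟩ := h0.unique100 h ⟨_, mem_orbit_self _⟩ v
  exact ⟨(autCongr e).toMonoidHom.comp φ, (autCongr e).injective.comp hφ⟩

variable {α : Type*} [Fintype α] (hα : Fintype.card α = 22) {B : Set (Finset α)} (hB : IsSteinerSystem 3 6 B)
include hα hB

theorem srg_pb : SRG (pointBlockGraph B) 100 22 0 6 := by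
  obtain ⟨G0, h0, -⟩ := Srg.exists_hs
  haveI : Finite (orbit hs (-leechU)) := Nat.finite_of_card_ne_zero (by rw [h0.card]; norm_num)
  obtain ⟨e, -⟩ := h0.exists_iso ⟨_, mem_orbit_self _⟩ hα hB
  exact h0.iso e.symm

theorem srg_block : SRG (blockGraph B) 77 16 0 4 := by
  classical
  have h := srg_pb hα hB
  obtain ⟨a1, a2, a3, a4, a5⟩ := pb_adj (B := B)
  have key : ∀ p : Option (α ⊕ B) → Prop, ¬p none →
      {u | p u}.ncard = {a | p (some (.inl a))}.ncard + {b | p (some (.inr b))}.ncard := fun p hp => by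
    rw [← Set.ncard_image_of_injective {a | p (some (.inl a))} ((Option.some_injective _).comp Sum.inl_injective),
      ← Set.ncard_image_of_injective {b | p (some (.inr b))} ((Option.some_injective _).comp Sum.inr_injective),
      ← Set.ncard_union_eq (by simp [Set.disjoint_left])]
    congr 1
    ext (_ | a | b) <;> simp [hp]
  have n0 : ∀ b, ¬(pointBlockGraph B).Adj (some (.inr b)) none := fun b e => a2 b e.symm
  have a6 : ∀ b p, (pointBlockGraph B).Adj (some (.inr b)) (some (.inl p)) ↔ p ∈ (b : Finset α) :=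
    fun b p => (adj_comm _ _ _).trans (a4 p b)
  refine ⟨?_, fun b => ?_, fun b c e => ?_, fun b c e1 e2 => ?_⟩
  · have := h.card
    rw [Finite.card_option, Nat.card_sum, Nat.card_eq_fintype_card, hα] at this
    omega
  · have := h.deg (some (.inr b))
    rw [key _ (n0 b)] at this
    simp only [a5, a6, Finset.setOf_mem, Set.ncard_coe_finset, hB.1 b b.2] at this
    omega
  · have := h.adj _ _ ((a5 b c).2 e)
    rw [key _ fun e => n0 b e.1] at this
    simp only [a5] at this
    omega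
  · have := h.nadj (some (.inr b)) (some (.inr c)) (by simpa) (mt (a5 b c).1 e2)
    rw [key _ fun e => n0 b e.1] at this
    simp only [a5, a6, ← Finset.mem_inter, Finset.setOf_mem, Set.ncard_coe_finset] at this
    rw [(Agent.S0356.result hα hB b.2 c.2 (Subtype.val_injective.ne e1)).resolve_left fun e => e2 (block_adj.2
      ⟨e1, Finset.disjoint_iff_inter_eq_empty.2 (Finset.card_eq_zero.1 e)⟩)] at this
    omega

end Cfsg.Lib.Srg
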