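import Mathlib

/-!
# Tight frames: sixty vectors of norm `4` with inner products `4, 1, -2` in dimension five
-/

set_option autoImplicit false

namespace Cfsg.Lib.Srg

open Finset Matrix

variable {P : Type*} [Fintype P]

theorem parseval {ι : Type*} [Fintype ι] [DecidableEq ι] (g : P → P → ℚ) (c : ℚ) (hs : ∀ a b, g a b = g b a)
    (hg : ∀ a b, ∑ y, g a y * g b y = c * g a b) (w : ι → P → ℚ) (n : ι → ℚ) (hn : ∀ i, n i ≠ 0)
    (h1 : ∀ i a, ∑ y, g a y * w i y = c * w i a) (h2 : ∀ i j, ∑ y, w i y * w j y = if i = j then c * n i else 0)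
    (ht : ∑ a, g a a = c * Fintype.card ι) (a b : P) : g a b = ∑ i, w i a * w i b / n i := by
  classical
  let M : Matrix P P ℚ := of g
  let W : Matrix ι P ℚ := of w
  let D : Matrix ι ι ℚ := diagonal fun i => (n i)⁻¹
  have e0 : Mᵀ = M := by ext a b; exact hs b a
  have e1 : M * M = c • M := by ext a b; simpa [M, mul_apply, hs _ b] using hg a b
  have e2 : M * Wᵀ = c • Wᵀ := by ext a i; simpa [M, W, mul_apply] using h1 i a
  have e3 : W * M = c • W := by simpa [e0] using congrArg transpose e2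
  have e4 : D * (W * Wᵀ) = c • (1 : Matrix ι ι ℚ) := by
    ext i j
    rw [diagonal_mul, mul_apply]
    simp only [W, of_apply, transpose_apply, h2, Matrix.smul_apply, one_apply]
    split_ifs
    · simp [mul_left_comm, hn i]
    · simp
  let K := M - Wᵀ * (D * W)
  have e5 : K * K = c • K := by
    have a1 : M * (Wᵀ * (D * W)) = c • (Wᵀ * (D * W)) := by rw [← Matrix.mul_assoc, e2, Matrix.smul_mul]
    have a2 : Wᵀ * (D * W) * M = c • (Wᵀ * (D * W)) := by
      rw [Matrix.mul_assoc, Matrix.mul_assoc, e3, Matrix.mul_smul, Matrix.mul_smul]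
    have a3 : Wᵀ * (D * W) * (Wᵀ * (D * W)) = c • (Wᵀ * (D * W)) := by
      rw [Matrix.mul_assoc, Matrix.mul_assoc, ← Matrix.mul_assoc W, ← Matrix.mul_assoc D, e4, Matrix.smul_mul,
        Matrix.one_mul, Matrix.mul_smul]
    simp only [K, sub_mul, mul_sub, e1, a1, a2, a3, smul_sub, sub_self, sub_zero]
  have e6 : Kᴴ = K := by
    simp [K, conjTranspose_eq_transpose_of_trivial, e0, D, Matrix.mul_assoc]
  have e7 : K.trace = 0 := by
    rw [trace_sub, trace_mul_comm, Matrix.mul_assoc, e4, trace_smul, trace_one, sub_eq_zero]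
    exact ht
  have e8 : K = 0 := trace_mul_conjTranspose_self_eq_zero_iff.1 (by rw [e6, e5, trace_smul, e7, smul_zero])
  have := congrFun (congrFun (sub_eq_zero.1 e8) a) b
  simp only [M, W, D, of_apply, mul_apply (M := _ᵀ), transpose_apply, diagonal_mul] at this
  rw [this]
  exact sum_congr rfl fun i _ => by ring

/-- The Gram function of the sixty vectors. -/
structure F60 (g : P → P → ℚ) : Prop where
  card : Fintype.card P = 60
  symm : ∀ a b, g a b = g b a
  diag : ∀ a, g a a = 4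
  val : ∀ a b, g a b = 4 ∨ g a b = 1 ∨ g a b = -2
  sum : ∀ a, ∑ y, g a y = 0
  frame : ∀ a b, ∑ y, g a y * g b y = 48 * g a b

/-- A set of twenty vectors with positive inner products. -/
def Good (g : P → P → ℚ) (K : Finset P) : Prop := #K = 20 ∧ ∀ p ∈ K, ∀ q ∈ K, 0 < g p q

namespace F60

variable {g : P → P → ℚ} (h : F60 g)
include h

theorem card_eq (a : P) (v α β γ : ℚ) (e : ∀ x : ℚ, x = 4 ∨ x = 1 ∨ x = -2 →
    α * (x * x) + β * x + γ = if x = v then 1 else 0) : (#{y | g a y = v} : ℚ) = 192 * α + 60 * γ := by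
  rw [← sum_boole, ← sum_congr rfl fun y _ => e _ (h.val a y)]
  simp only [sum_add_distrib, ← mul_sum, h.frame, h.sum, h.diag, sum_const, card_univ, h.card, nsmul_eq_mul]
  ring

theorem card4 (a : P) : #{y | g a y = 4} = 4 := by
  have := h.card_eq a 4 (1 / 18) (1 / 18) (-1 / 9) (by rintro _ (rfl | rfl | rfl) <;> norm_num)
  exact_mod_cast this.trans (by norm_num : _ = (4 : ℚ))

theorem card1 (a : P) : #{y | g a y = 1} = 32 := by
  have := h.card_eq a 1 (-1 / 9) (2 / 9) (8 / 9) (by rintro _ (rfl | rfl | rfl) <;> norm_num)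
  exact_mod_cast this.trans (by norm_num : _ = (32 : ℚ))

theorem card2 (a : P) : #{y | g a y = -2} = 24 := by
  have := h.card_eq a (-2) (1 / 18) (-5 / 18) (2 / 9) (by rintro _ (rfl | rfl | rfl) <;> norm_num)
  exact_mod_cast this.trans (by norm_num : _ = (24 : ℚ))

theorem row {a b : P} (e : g a b = 4) (c : P) : g a c = g b c := by
  have : ∑ y, (g a y - g b y) * (g a y - g b y) = 0 := by
    simp only [sub_mul, mul_sub, sum_sub_distrib, h.frame, h.diag, e, h.symm b a]
    ring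
  exact sub_eq_zero.1 (mul_self_eq_zero.1 ((sum_eq_zero_iff_of_nonneg fun _ _ => mul_self_nonneg _).1 this c (mem_univ c)))

theorem pm {a b d : P} (hb : g a b = -2) (hd : g a d = 1) : 2 * g b d + g a d = 3 ∨ 2 * g b d + g a d = -3 := by
  rcases h.val b d with e | e | e
  · have := h.row e a
    rw [h.symm b, h.symm d, hb, hd] at this
    norm_num at this
  all_goals rw [e, hd]; norm_num

theorem card_par {a b : P} (hb : g a b = -2) : #{y | g a y = -2 ∧ g b y ≠ 1} ≤ 8 := by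
  have h1 : ∑ y, (2 * g b y + g a y) * (2 * g b y + g a y) = 576 := by
    simp only [add_mul, mul_add, sum_add_distrib, mul_assoc, mul_left_comm _ (2 : ℚ), ← mul_sum, h.frame, h.diag, hb,
      h.symm b a]
    norm_num
  have h2 : ∑ y, (9 * (if g a y = 1 then 1 else 0) + 36 * if g a y = -2 ∧ g b y ≠ 1 then 1 else 0 : ℚ) ≤ 576 := by
    refine h1 ▸ sum_le_sum fun y _ => ?_
    by_cases e : g a y = 1
    · rcases h.pm hb e with e1 | e1 <;> rw [e1, e] <;> norm_num
    · rw [if_neg e]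
      split_ifs with e1
      · rcases h.val b y with e2 | e2 | e2
        · rw [e1.1, e2]; norm_num
        · exact absurd e2 e1.2
        · rw [e1.1, e2]; norm_num
      · simpa using mul_self_nonneg _
  rw [sum_add_distrib, ← mul_sum, ← mul_sum, sum_boole, sum_boole, h.card1] at h2
  have : (#{y | g a y = -2 ∧ g b y ≠ 1} : ℚ) ≤ 8 := by push_cast at h2; linarith
  exact_mod_cast this

theorem exists_axes (a : P) : ∃ b c d, g a b = -2 ∧ g a c = -2 ∧ g a d = -2 ∧ g b c = 1 ∧ g b d = 1 ∧ g c d = 1 := by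
  classical
  obtain ⟨b, hb⟩ := card_pos.1 (by rw [h.card2 a]; norm_num)
  replace hb := (mem_filter.1 hb).2
  obtain ⟨c, hc, e⟩ := exists_mem_notMem_of_card_lt_card ((h.card_par hb).trans_lt (by rw [h.card2 a]; norm_num))
  replace hc := (mem_filter.1 hc).2
  obtain ⟨d, hd, e'⟩ := exists_mem_notMem_of_card_lt_card (((card_union_le _ _).trans
    (add_le_add (h.card_par hb) (h.card_par hc))).trans_lt (by rw [h.card2 a]; norm_num))
  replace hd := (mem_filter.1 hd).2
  simp only [mem_union, mem_filter, mem_univ, true_and, hc, hd, not_or, not_not] at e e'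
  exact ⟨b, c, d, hb, hc, hd, e, e'.1, e'.2⟩

theorem exists_coord (a : P) : ∃ (w : Fin 3 → P → ℚ) (τ : P → ℚ), (∀ i d, g a d = 1 → w i d = 3 ∨ w i d = -3) ∧
    (∀ c d, g c d = g a c * g a d / 4 + (w 0 c * w 0 d + w 1 c * w 1 d + w 2 c * w 2 d) / 12 + τ c * τ d * 2 / 3) ∧
    ∑ y, τ y = 0 ∧ ∑ y, τ y * τ y = 72 := by
  obtain ⟨b₀, b₁, b₂, h0, h1, h2, h01, h02, h12⟩ := h.exists_axes a
  obtain ⟨d, hd⟩ := card_pos.1 (by rw [h.card1 a]; norm_num)
  replace hd := (mem_filter.1 hd).2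
  have s0 := h.pm h0 hd
  have s1 := h.pm h1 hd
  have s2 := h.pm h2 hd
  let u (b y : P) := 2 * g b y + g a y
  let τ (y : P) := g d y - g a y / 4 - (u b₀ d * u b₀ y + u b₁ d * u b₁ y + u b₂ d * u b₂ y) / 12
  have ru : ∀ b (v : P → ℚ), (∀ c, ∑ y, g c y * v y = 48 * v c) → ∑ y, u b y * v y = 48 * (2 * v b + v a) := fun b v hv => by
    simp only [u, add_mul, mul_assoc, sum_add_distrib, ← mul_sum, hv]
    ring
  have rτ : ∀ v : P → ℚ, (∀ c, ∑ y, g c y * v y = 48 * v c) → ∑ y, τ y * v y = 48 * (v d - v a / 4 -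
      (u b₀ d * (2 * v b₀ + v a) + u b₁ d * (2 * v b₁ + v a) + u b₂ d * (2 * v b₂ + v a)) / 12) := fun v hv => by
    have e : ∀ y, τ y * v y = g d y * v y - 1 / 4 * (g a y * v y) - 1 / 12 * (u b₀ d * (u b₀ y * v y) +
      u b₁ d * (u b₁ y * v y) + u b₂ d * (u b₂ y * v y)) := fun y => by simp only [τ]; ring
    simp only [e, sum_add_distrib, sum_sub_distrib, ← mul_sum, hv, ru _ v hv]
    ring
  have ga : ∀ b c, ∑ y, g c y * g b y = 48 * g b c := fun b c => by rw [h.frame, h.symm]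
  have gu : ∀ b c, ∑ y, g c y * u b y = 48 * u b c := fun b c => by
    rw [sum_congr rfl fun y _ => mul_comm _ _, ru b _ (ga c), h.symm c, h.symm c]
  have gτ : ∀ c, ∑ y, g c y * τ y = 48 * τ c := fun c => by
    rw [sum_congr rfl fun y _ => mul_comm _ _, rτ _ (ga c)]
    simp only [τ, u, h.symm c]
  have t0 : τ a = 0 := by simp only [τ, u, h.symm _ a, hd, h0, h1, h2, h.diag]; ring
  have t1 : τ b₀ = 0 := by
    simp only [τ, u, h.symm d, h.symm b₁ b₀, h.symm b₂ b₀, hd, h0, h01, h02, h.diag]; ring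
  have t2 : τ b₁ = 0 := by simp only [τ, u, h.symm d, h.symm b₂ b₁, hd, h1, h01, h12, h.diag]; ring
  have t3 : τ b₂ = 0 := by simp only [τ, u, h.symm d, hd, h2, h02, h12, h.diag]; ring
  have t4 : τ d = 3 / 2 := by
    simp only [τ, u, h.diag]
    rcases s0 with s0 | s0 <;> rcases s1 with s1 | s1 <;> rcases s2 with s2 | s2 <;> rw [s0, s1, s2, hd] <;> norm_num
  have tt : ∑ y, τ y * τ y = 72 := by rw [rτ _ gτ, t0, t1, t2, t3, t4]; norm_num
  have k : ∀ v : P → ℚ, ∑ y, v y * τ y = ∑ y, τ y * v y := fun v => sum_congr rfl fun y _ => mul_comm _ _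
  have hP := parseval g 48 h.symm h.frame ![g a, u b₀, u b₁, u b₂, τ] ![4, 12, 12, 12, 3 / 2]
    (fun i => by fin_cases i <;> simp) (fun i => by
      fin_cases i
      exacts [ga a, gu b₀, gu b₁, gu b₂, gτ]) (fun i j => by
      fin_cases i <;> fin_cases j <;>
        simp only [Fin.zero_eta, Fin.mk_one, Fin.reduceFinMk, Matrix.cons_val, Fin.isValue, Fin.reduceEq, if_true, if_false,
          tt, ← k (g a), ← k (u _), ga, gu, gτ, ru _ _ (ga _), ru _ _ (gu _), ru _ _ gτ, t0, t1, t2, t3] <;>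
        norm_num [u, h.symm _ a, h.symm b₁ b₀, h.symm b₂ b₀, h.symm b₂ b₁, h0, h1, h2, h01, h02, h12, h.diag])
    (by simp [h.diag, h.card]; norm_num)
  refine ⟨![u b₀, u b₁, u b₂], τ, fun i y hy => ?_, fun c y => ?_, ?_, tt⟩
  · fin_cases i
    exacts [h.pm h0 hy, h.pm h1 hy, h.pm h2 hy]
  · rw [hP c y, Fin.sum_univ_five]
    simp only [Matrix.cons_val]
    ring
  · have e : ∀ y, τ y = g d y - 1 / 4 * g a y - 1 / 12 * (u b₀ d * (2 * g b₀ y + g a y) +
      u b₁ d * (2 * g b₁ y + g a y) + u b₂ d * (2 * g b₂ y + g a y)) := fun y => by simp only [τ, u]; ring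
    simp only [e, sum_add_distrib, sum_sub_distrib, ← mul_sum, h.sum]
    ring

theorem two (a : P) : ∃ K₁ K₂, K₁ ≠ K₂ ∧ (Good g K₁ ∧ a ∈ K₁) ∧ (Good g K₂ ∧ a ∈ K₂) ∧
    ∀ K, Good g K → a ∈ K → K = K₁ ∨ K = K₂ := by
  classical
  obtain ⟨w, τ, hw, hP, s1, s2⟩ := h.exists_coord a
  have w2 : ∀ i d, g a d = 1 → w i d * w i d = 9 := fun i d e => by rcases hw i d e with e | e <;> rw [e] <;> norm_num
  have w3 : ∀ i d e, g a d = 1 → g a e = 1 → w i d * w i e = 9 ∧ w i d = w i e ∨ w i d * w i e = -9 := fun i d e e1 e2 => by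
    rcases hw i d e1 with e1 | e1 <;> rcases hw i e e2 with e2 | e2 <;> rw [e1, e2] <;> norm_num
  have t1 : ∀ d, g a d = 1 → τ d * τ d = 9 / 4 := fun d e => by
    have := hP d d
    rw [h.diag, e, w2 0 d e, w2 1 d e, w2 2 d e] at this
    linarith
  have t2 : ∀ d, g a d = 1 → τ d = 3 / 2 ∨ τ d = -(3 / 2) := fun d e =>
    mul_self_eq_mul_self_iff.1 ((t1 d e).trans (by norm_num))
  have t3 : ∀ d, g a d ≠ 1 → τ d = 0 := fun d e => by
    rw [← sum_filter_add_sum_filter_not univ fun y => g a y = 1, sum_congr rfl fun y hy => t1 y (mem_filter.1 hy).2,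
      sum_const, h.card1, nsmul_eq_mul] at s2
    exact mul_self_eq_zero.1 ((sum_eq_zero_iff_of_nonneg fun _ _ => mul_self_nonneg _).1
      (by push_cast at s2; linarith) d (mem_filter.2 ⟨mem_univ _, e⟩))
  have t4 : ∀ d s, s * s = 9 / 4 → τ d = s → g a d = 1 := fun d s hs e => by_contra fun e1 => by
    rw [← e, t3 d e1] at hs
    norm_num at hs
  have c1 : ∀ s, s * s = 9 / 4 → #{y | τ y = s} = 16 := fun s hs => by
    have e : ∀ y, (if τ y = s then 1 else 0 : ℚ) = 2 / 9 * (τ y * τ y) + 2 / 9 * s * τ y := fun y => by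
      split_ifs with e
      · rw [e]; linarith
      · by_cases e1 : g a y = 1
        · rw [(mul_self_eq_mul_self_iff.1 ((t1 y e1).trans hs.symm)).resolve_left e]; ring
        · rw [t3 y e1]; ring
    have := sum_congr rfl fun y (_ : y ∈ univ) => e y
    rw [sum_boole, sum_add_distrib, ← mul_sum, ← mul_sum, s1, s2] at this
    exact_mod_cast this.trans (by norm_num : _ = (16 : ℚ))
  let K (s : ℚ) : Finset P := (univ.filter fun y => g a y = 4) ∪ univ.filter fun y => τ y = s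
  have mK : ∀ s y, y ∈ K s ↔ g a y = 4 ∨ τ y = s := fun s y => by simp [K]
  have gK : ∀ s, s * s = 9 / 4 → Good g (K s) ∧ a ∈ K s := fun s hs => by
    refine ⟨⟨?_, fun p hp q hq => ?_⟩, (mK _ _).2 (.inl (h.diag a))⟩
    · rw [card_union_of_disjoint (disjoint_filter.2 fun y _ e e1 => by
        rw [t4 y s hs e1] at e; norm_num at e), h.card4, c1 s hs]
    have k : ∀ y ∈ K s, 0 < g a y := fun y hy => by
      rcases (mK _ _).1 hy with e | e
      · rw [e]; norm_num
      · rw [t4 y s hs e]; norm_num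
    rcases (mK _ _).1 hp with e | e
    · exact h.row e q ▸ k q hq
    rcases (mK _ _).1 hq with e' | e'
    · exact h.symm p q ▸ h.row e' p ▸ k p hp
    have := hP p q
    have a1 := t4 p s hs e
    have a2 := t4 q s hs e'
    rw [a1, a2, e, e', hs] at this
    rcases w3 0 p q a1 a2 with ⟨b0, -⟩ | b0 <;> rcases w3 1 p q a1 a2 with ⟨b1, -⟩ | b1 <;>
      rcases w3 2 p q a1 a2 with ⟨b2, -⟩ | b2 <;> rcases h.val p q with b | b | b <;> linarith
  refine ⟨K (3 / 2), K (-(3 / 2)), fun e => ?_, gK (3 / 2) (by norm_num), gK (-(3 / 2)) (by norm_num), fun L hL ha => ?_⟩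
  · obtain ⟨y, hy⟩ := card_pos.1 (by rw [c1 (3 / 2) (by norm_num)]; norm_num)
    replace hy := (mem_filter.1 hy).2
    rcases (mK _ _).1 (e ▸ (mK _ _).2 (.inr hy)) with e | e
    · rw [t4 y _ (by norm_num) hy] at e; norm_num at e
    · rw [hy] at e; norm_num at e
  have m : ∀ y ∈ L, g a y = 4 ∨ τ y = 3 / 2 ∨ τ y = -(3 / 2) := fun y hy => by
    rcases h.val a y with e | e | e
    exacts [.inl e, .inr (t2 y e), absurd (hL.2 a ha y hy) (by rw [e]; norm_num)]
  have eK : ∀ s, s * s = 9 / 4 → L ⊆ K s → L = K s := fun s hs e =>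
    eq_of_subset_of_card_le e (by rw [(gK s hs).1.1, hL.1])
  by_contra hn
  rw [not_or] at hn
  obtain ⟨e, e1, e2⟩ := not_subset.1 (mt (eK _ (by norm_num)) hn.1)
  obtain ⟨d, d1, d2⟩ := not_subset.1 (mt (eK _ (by norm_num)) hn.2)
  rw [mK, not_or] at e2 d2
  have e3 := ((m e e1).resolve_left e2.1).resolve_left e2.2
  have d3 := ((m d d1).resolve_left d2.1).resolve_right d2.2
  have q : ∀ p ∈ L, ∀ r ∈ L, τ p = 3 / 2 → τ r = -(3 / 2) → w 0 p = w 0 r ∧ w 1 p = w 1 r ∧ w 2 p = w 2 r :=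
    fun p hp r hr a1 a2 => by
      have := hP p r
      have a3 := t4 p _ (by norm_num) a1
      have a4 := t4 r _ (by norm_num) a2
      have a5 := hL.2 p hp r hr
      rw [a1, a2, a3, a4] at this
      rcases w3 0 p r a3 a4 with ⟨b0, c0⟩ | b0 <;> rcases w3 1 p r a3 a4 with ⟨b1, c1⟩ | b1 <;>
        rcases w3 2 p r a3 a4 with ⟨b2, c2⟩ | b2
      · exact ⟨c0, c1, c2⟩
      all_goals linarith
  have q4 : ∀ p r s, s * s = 9 / 4 → τ p = s → τ r = s → w 0 p = w 0 r → w 1 p = w 1 r → w 2 p = w 2 r → g p r = 4 :=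
    fun p r s hs a1 a2 b0 b1 b2 => by
      have a3 := t4 r _ hs a2
      rw [hP, a1, a2, b0, b1, b2, hs, t4 p _ hs a1, a3, w2 0 r a3, w2 1 r a3, w2 2 r a3]
      norm_num
  have := card_le_card (s := L) (t := (univ.filter fun y => g a y = 4) ∪ ((univ.filter fun y => g d y = 4) ∪
      univ.filter fun y => g e y = 4)) fun y hy => by
    simp only [mem_union, mem_filter, mem_univ, true_and]
    obtain ⟨x0, x1, x2⟩ := q d d1 e e1 d3 e3
    rcases m y hy with a | a | a
    · exact .inl a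
    · obtain ⟨y0, y1, y2⟩ := q y hy e e1 a e3
      exact .inr (.inl (q4 d y _ (by norm_num) d3 a (x0.trans y0.symm) (x1.trans y1.symm) (x2.trans y2.symm)))
    · obtain ⟨y0, y1, y2⟩ := q d d1 y hy d3 a
      exact .inr (.inr (q4 e y _ (by norm_num) e3 a (x0.symm.trans y0) (x1.symm.trans y1) (x2.symm.trans y2)))
  have := this.trans ((card_union_le _ _).trans (add_le_add le_rfl (card_union_le _ _)))
  rw [hL.1, h.card4, h.card4, h.card4] at this
  omega

end F60

end Cfsg.Lib.Srg
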