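import Cfsg.Agent.Lib.Srg.HS
import Cfsg.Agent.Lib.Srg.P60

/-!
# The strongly regular graph with parameters `(77, 16, 0, 4)`
-/

set_option autoImplicit false

namespace Cfsg.Lib.Srg

open SimpleGraph Finset Matrix

theorem steiner_of_blk {V α : Type*} [Fintype V] [Fintype α] [DecidableEq α] {G : SimpleGraph V} (blk : V → Finset α)
    (c1 : Fintype.card α = 22) (c2 : Fintype.card V = 77) (b1 : ∀ u, #(blk u) = 6)
    (b2 : ∀ u w, u ≠ w → ¬G.Adj u w → #(blk u ∩ blk w) = 2) (b3 : ∀ u w, G.Adj u w → Disjoint (blk u) (blk w)) :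
    ∃ B : Set (Finset α), IsSteinerSystem 3 6 B ∧ Nonempty (blockGraph B ≃g G) := by
  classical
  have b4 : ∀ u w, 3 ≤ #(blk u ∩ blk w) → u = w := fun u w e => by
    by_contra e1
    by_cases e2 : G.Adj u w
    · rw [disjoint_iff_inter_eq_empty.1 (b3 u w e2)] at e; simp at e
    · rw [b2 u w e1 e2] at e; omega
  have hi : Function.Injective blk := fun u w e => b4 u w (by rw [e, inter_self, b1]; norm_num)
  have b5 : (univ.biUnion fun u => powersetCard 3 (blk u)) = powersetCard 3 univ :=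
    eq_of_subset_of_card_le (biUnion_subset.2 fun u _ => powersetCard_mono (subset_univ _)) (by
      rw [card_biUnion fun u _ w _ e => disjoint_left.2 fun s h1 h2 => e (b4 u w (by
        rw [← (mem_powersetCard.1 h1).2]
        exact card_le_card (subset_inter (mem_powersetCard.1 h1).1 (mem_powersetCard.1 h2).1)))]
      simp only [card_powersetCard, b1, sum_const, card_univ, c1, c2]
      decide)
  let eb := Equiv.ofInjective blk hi
  have hb : ∀ b, blk (eb.symm b) = b := fun b => Equiv.apply_ofInjective_symm hi b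
  refine ⟨Set.range blk, ⟨by rintro _ ⟨u, rfl⟩; exact b1 u, fun s hs => ?_⟩, ⟨eb.symm, fun {b c} => ?_⟩⟩
  · obtain ⟨u, -, hu⟩ := mem_biUnion.1 (b5 ▸ mem_powersetCard.2 ⟨subset_univ s, hs⟩)
    refine ⟨blk u, ⟨⟨u, rfl⟩, (mem_powersetCard.1 hu).1⟩, ?_⟩
    rintro _ ⟨⟨w, rfl⟩, hw⟩
    rw [b4 w u (hs ▸ card_le_card (subset_inter hw (mem_powersetCard.1 hu).1))]
  · rw [block_adj, ← hb b, ← hb c]
    refine ⟨fun e => ⟨fun e1 => e.ne (by rw [e1]), b3 _ _ e⟩, fun e => by_contra fun e1 => ?_⟩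
    have := b2 _ _ (eb.symm.injective.ne e.1) e1
    rw [disjoint_iff_inter_eq_empty.1 e.2] at this
    simp at this

variable {V : Type*} [Fintype V] [DecidableEq V] (G : SimpleGraph V) [DecidableRel G.Adj]

/-- The Gram matrix of the representation in the eigenspace of `-6`. -/
def gm77 : Matrix V V ℚ := (22 : ℚ) • (1 : Matrix V V ℚ) - (11 : ℚ) • G.adjMatrix ℚ + (2 : ℚ) • of fun _ _ => 1

/-- The number of common neighbours of three vertices. -/
def cn3 (x z y : V) : ℕ := #{b | G.Adj x b ∧ G.Adj z b ∧ G.Adj y b}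

/-- Coefficients of the projection orthogonal to the neighbours of `x`. -/
def uv77 (x z y : V) : ℚ := 6 * (if y = z then 1 else 0) + 3 * (if G.Adj x y ∧ G.Adj z y then 1 else 0) +
  4 * if y = x then 1 else 0

/-- A coclique of size `21`. -/
def Co21 (K : Finset V) : Prop := #K = 21 ∧ ∀ p ∈ K, ∀ q ∈ K, ¬G.Adj p q

variable {G}

omit [Fintype V] in
theorem gm77_apply (y z : V) : gm77 G y z = 22 * (if y = z then 1 else 0) - 11 * (if G.Adj y z then 1 else 0) + 2 := by
  simp [gm77, one_apply]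

omit [Fintype V] in
theorem gm77_symm (y z : V) : gm77 G y z = gm77 G z y := by
  simp only [gm77_apply, eq_comm (a := y), G.adj_comm y]

omit [DecidableEq V] in
theorem cn3_comm (x z y : V) : cn3 G x z y = cn3 G x y z := by simp only [cn3, and_comm (a := G.Adj z _)]

variable (h : G.IsSRGWith 77 16 0 4)
include h

theorem sum_gm77 (y : V) : ∑ z, gm77 G y z = 0 := by
  have := h.regular y
  rw [← card_neighborFinset_eq_degree, neighborFinset_eq_filter] at this
  simp only [gm77_apply, sum_add_distrib, sum_sub_distrib, ← mul_sum, sum_boole, this, sum_const, card_univ, h.card,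
    filter_eq, mem_univ, if_true, card_singleton]
  norm_num

theorem gm77_mul : gm77 G * gm77 G = (88 : ℚ) • gm77 G := by
  let J : Matrix V V ℚ := of fun _ _ => 1
  have e1 : gm77 G * J = 0 := by ext y z; simpa [J, mul_apply] using sum_gm77 h y
  have e2 : J * gm77 G = 0 := by ext y z; simpa [J, mul_apply, gm77_symm _ z] using sum_gm77 h z
  have e3 : G.adjMatrix ℚ * G.adjMatrix ℚ = (12 : ℚ) • (1 : Matrix V V ℚ) - (4 : ℚ) • G.adjMatrix ℚ + (4 : ℚ) • J := by
    rw [← pow_two, h.matrix_eq]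
    ext y z
    simp only [Matrix.add_apply, Matrix.sub_apply, Matrix.smul_apply, adjMatrix_apply, compl_adj, one_apply, J, of_apply]
    by_cases a : y = z
    · simp [a]; norm_num
    · by_cases b : G.Adj y z <;> simp [a, b]
  have e4 : J * G.adjMatrix ℚ = (16 : ℚ) • J := by
    ext y z
    have := h.regular z
    rw [← card_neighborFinset_eq_degree] at this
    simp [J, this]
  have e : gm77 G = (22 : ℚ) • (1 : Matrix V V ℚ) - (11 : ℚ) • G.adjMatrix ℚ + (2 : ℚ) • J := rfl
  nth_rw 2 [e]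
  rw [mul_add, Matrix.mul_smul, e1, e]
  simp only [mul_sub, add_mul, sub_mul, Matrix.mul_smul, Matrix.smul_mul, Matrix.mul_one, Matrix.one_mul, e3, e4]
  module

theorem dot77 (u v : V → ℚ) : ∑ y, (gm77 G *ᵥ u) y * (gm77 G *ᵥ v) y = 88 * ∑ y, u y * (gm77 G *ᵥ v) y := by
  have e : (gm77 G)ᵀ = gm77 G := by ext y z; exact gm77_symm z y
  change (gm77 G *ᵥ u) ⬝ᵥ (gm77 G *ᵥ v) = 88 * (u ⬝ᵥ (gm77 G *ᵥ v))
  rw [← e, mulVec_transpose, ← dotProduct_mulVec, e, mulVec_mulVec, gm77_mul h, smul_mulVec, dotProduct_smul, smul_eq_mul]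

theorem sum_mulVec77 (u : V → ℚ) : ∑ y, (gm77 G *ᵥ u) y = 0 := by
  simp only [mulVec, dotProduct]
  rw [sum_comm]
  exact sum_eq_zero fun z _ => by rw [← sum_mul, sum_congr rfl fun y _ => gm77_symm y z, sum_gm77 h, zero_mul]

omit [DecidableEq V] in
theorem card_cn {x z : V} (h1 : z ≠ x) (h2 : ¬G.Adj x z) : #{b | G.Adj x b ∧ G.Adj z b} = 4 := by
  rw [← (srg_iff.1 h).nadj x z h1.symm h2, ← Set.ncard_coe_finset, coe_filter_univ]

theorem sum_uv77 {x z : V} (h1 : z ≠ x) (h2 : ¬G.Adj x z) (f : V → ℚ) :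
    ∑ y, uv77 G x z y * f y = 6 * f z + 3 * (∑ y with G.Adj x y ∧ G.Adj z y, f y) + 4 * f x := by
  simp only [uv77, add_mul, mul_assoc, sum_add_distrib, ← mul_sum, boole_mul, sum_ite_eq', mem_univ, if_true, sum_filter]

theorem w77 {x z : V} (h1 : z ≠ x) (h2 : ¬G.Adj x z) (y : V) : (gm77 G *ᵥ uv77 G x z) y =
    6 * gm77 G y z + 4 * gm77 G y x + 24 + 66 * (if G.Adj x y ∧ G.Adj z y then 1 else 0) - 33 * cn3 G x z y := by
  rw [mulVec, dotProduct, sum_congr rfl fun b _ => mul_comm _ _, sum_uv77 h h1 h2]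
  have : ∑ b with G.Adj x b ∧ G.Adj z b, gm77 G y b =
      22 * (if G.Adj x y ∧ G.Adj z y then 1 else 0) - 11 * cn3 G x z y + 8 := by
    simp only [gm77_apply, sum_add_distrib, sum_sub_distrib, ← mul_sum, sum_ite_eq, mem_filter, mem_univ, true_and,
      sum_const, card_cn h h1 h2]
    rw [sum_boole, filter_filter]
    simp only [cn3, and_assoc]
    norm_num
  rw [this]
  ring

omit [DecidableEq V] in
theorem cn3_eq_zero {x z y : V} (e : G.Adj x y ∨ G.Adj z y) : cn3 G x z y = 0 :=
  card_eq_zero.2 (filter_eq_empty_iff.2 fun b _ a => e.elim (fun e => (srg_iff.1 h).not_adj e a.1 a.2.2)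
    fun e => (srg_iff.1 h).not_adj e a.2.1 a.2.2)

theorem w77_zero {x z : V} (h1 : z ≠ x) (h2 : ¬G.Adj x z) {y : V} (hy : ¬(y ≠ x ∧ ¬G.Adj x y)) :
    (gm77 G *ᵥ uv77 G x z) y = 0 := by
  rw [w77 h h1 h2, gm77_apply, gm77_apply]
  by_cases e : y = x
  · have : cn3 G x z x = 4 := by
      rw [← card_cn h h1 h2]
      exact congrArg card (filter_congr fun _ _ => by tauto)
    simp [e, this, h1.symm, h2]
    norm_num
  · have a : G.Adj x y := by tauto
    have b : y ≠ z := fun e => h2 (e ▸ a)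
    rw [cn3_eq_zero h (.inl a)]
    by_cases c : G.Adj z y <;> simp [a, b, c, e, a.symm, G.adj_comm y z] <;> norm_num

/-- The Gram function on the second subconstituent. -/
def g60 (G : SimpleGraph V) [DecidableRel G.Adj] (x : V) (z y : {y // y ≠ x ∧ ¬G.Adj x y}) : ℚ :=
  12 * (if z = y then 1 else 0) - 6 * (if G.Adj z y then 1 else 0) - 3 * cn3 G x z y + 4

theorem w77_eq {x : V} (z y : {y // y ≠ x ∧ ¬G.Adj x y}) : (gm77 G *ᵥ uv77 G x z) y = 11 * g60 G x z y := by
  rw [w77 h z.2.1 z.2.2, gm77_apply, gm77_apply, g60]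
  simp only [y.2.1, y.2.2, G.adj_comm y, false_and, if_false, Subtype.val_inj, eq_comm (a := y)]
  ring

omit h in
theorem sum_sub77 {x : V} (f : V → ℚ) (hf : ∀ y, ¬(y ≠ x ∧ ¬G.Adj x y) → f y = 0) :
    ∑ y, f y = ∑ y : {y // y ≠ x ∧ ¬G.Adj x y}, f y := by
  rw [← sum_subtype (univ.filter fun y => y ≠ x ∧ ¬G.Adj x y) (by simp) f]
  exact (sum_subset (subset_univ _) fun y _ e => hf y (by simpa using e)).symm

theorem f60 (x : V) : F60 (g60 G x) := by
  have hs : ∀ a b, g60 G x a b = g60 G x b a := fun a b => by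
    simp only [g60, cn3_comm x a, G.adj_comm a, eq_comm (a := a)]
  have hd : ∀ a, g60 G x a a = 4 := fun a => by
    have : cn3 G x a a = 4 := by
      rw [← card_cn h a.2.1 a.2.2]
      exact congrArg card (filter_congr fun _ _ => by tauto)
    simp [g60, this]
    norm_num
  have hf : ∀ a b, ∑ y, g60 G x a y * g60 G x b y = 48 * g60 G x a b := fun a b => by
    have := dot77 h (uv77 G x a) (uv77 G x b)
    rw [sum_uv77 h a.2.1 a.2.2, sum_eq_zero (s := filter _ _) fun y hy => w77_zero h b.2.1 b.2.2 (by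
      simp [(mem_filter.1 hy).2.1]), w77_zero h b.2.1 b.2.2 (y := x) (by simp), w77_eq h,
      sum_sub77 (G := G) (x := x) _ fun y hy => by rw [w77_zero h b.2.1 b.2.2 hy, mul_zero], hs b] at this
    simp only [w77_eq h, mul_mul_mul_comm (11 : ℚ), ← mul_sum] at this
    linarith
  refine ⟨?_, hs, hd, fun a b => ?_, fun a => ?_, hf⟩
  · have := h.regular x
    rw [← card_neighborFinset_eq_degree, neighborFinset_eq_filter] at this
    have e := card_filter_add_card_filter_not (s := univ) fun y => y = x ∨ G.Adj x y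
    rw [filter_or, card_union_of_disjoint (disjoint_filter.2 fun y _ e a => a.ne e.symm), this, card_univ, h.card,
      filter_eq', if_pos (mem_univ _), card_singleton] at e
    rw [Fintype.card_subtype]
    simp only [not_or] at e
    exact Nat.add_left_cancel (n := 17) e
  · by_cases e : a = b
    · exact .inl (e ▸ hd a)
    by_cases e1 : G.Adj a b
    · simp [g60, e, e1, cn3_eq_zero h (.inr e1)]
      norm_num
    have h1 : 0 ≤ ∑ y, (g60 G x a y + g60 G x b y) * (g60 G x a y + g60 G x b y) := sum_nonneg fun _ _ => mul_self_nonneg _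
    simp only [add_mul, mul_add, sum_add_distrib, hf, hd, hs b a] at h1
    simp only [g60, e, e1, if_false] at h1 ⊢
    have h2 : (cn3 G x a b : ℚ) < 3 := by linarith
    have h3 : cn3 G x a b < 3 := by exact_mod_cast h2
    interval_cases cn3 G x a b <;> norm_num
  · have := sum_mulVec77 h (uv77 G x a)
    rw [sum_sub77 (G := G) (x := x) _ fun y hy => w77_zero h a.2.1 a.2.2 hy] at this
    simp only [w77_eq h, ← mul_sum] at this
    linarith

omit [Fintype V] h in
theorem co21_eq {x : V} {K : Finset V} (hK : Co21 G K) (hx : x ∈ K) :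
    K = insert x ((K.subtype fun y => y ≠ x ∧ ¬G.Adj x y).map (.subtype _)) := by
  ext y
  rw [subtype_map, mem_insert, mem_filter]
  exact ⟨fun e => or_iff_not_imp_left.2 fun a => ⟨e, a, hK.2 x hx y e⟩, fun e => e.elim (· ▸ hx) (·.1)⟩

theorem hoffman77 {K : Finset V} (hK : Co21 G K) (y : V) :
    (gm77 G *ᵥ fun y => if y ∈ K then 1 else 0) y = 88 * (if y ∈ K then 1 else 0) - 24 := by
  let κ : V → ℚ := fun y => if y ∈ K then 1 else 0
  have k0 : ∀ f : V → ℚ, ∑ y, κ y * f y = ∑ y ∈ K, f y := fun f => by simp [κ]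
  have k1 : ∀ y ∈ K, (gm77 G *ᵥ κ) y = 64 := fun y hy => by
    rw [mulVec, dotProduct, sum_congr rfl fun b _ => mul_comm _ _, k0,
      sum_congr rfl (g := fun z => 22 * (if y = z then 1 else 0) + 2) fun z hz => by simp [gm77_apply, hK.2 y hy z hz]]
    simp [sum_add_distrib, hy, hK.1]
    norm_num
  have k2 : ∑ y, κ y * (gm77 G *ᵥ κ) y = 1344 := by rw [k0, sum_congr rfl k1, sum_const, hK.1]; norm_num
  have k3 : ∑ y, κ y * κ y = 21 := by rw [k0, sum_congr rfl (g := fun _ => 1) fun y hy => if_pos hy, sum_const, hK.1]; norm_num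
  have k4 : ∑ y, κ y = 21 := by simp [κ, hK.1]
  have e : ∀ y, ((gm77 G *ᵥ κ) y - (88 * κ y - 24)) * ((gm77 G *ᵥ κ) y - (88 * κ y - 24)) =
      (gm77 G *ᵥ κ) y * (gm77 G *ᵥ κ) y - 176 * (κ y * (gm77 G *ᵥ κ) y) + 48 * (gm77 G *ᵥ κ) y + 7744 * (κ y * κ y) -
        4224 * κ y + 576 := fun y => by ring
  have := sum_congr rfl fun y (_ : y ∈ univ) => e y
  simp only [sum_add_distrib, sum_sub_distrib, ← mul_sum, dot77 h, k2, k3, k4, sum_mulVec77 h, sum_const, card_univ,
    h.card] at this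
  exact sub_eq_zero.1 (mul_self_eq_zero.1 ((sum_eq_zero_iff_of_nonneg fun _ _ => mul_self_nonneg _).1
    (this.trans (by norm_num)) y (mem_univ y)))

theorem co21_good {x : V} {K : Finset V} (hK : Co21 G K) (hx : x ∈ K) : Good (g60 G x) (K.subtype _) := by
  have c : #(K.subtype fun y => y ≠ x ∧ ¬G.Adj x y) = 20 := by
    have := congrArg card (co21_eq hK hx)
    rw [card_insert_of_notMem (by simp), card_map, hK.1] at this
    omega
  refine ⟨c, fun z hz q hq => lt_of_not_ge fun hn => ?_⟩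
  have F := f60 h x
  have h1 := dot77 h (uv77 G x z) fun y => if y ∈ K then 1 else 0
  rw [sum_congr rfl fun y _ => mul_comm _ _, dot77 h, sum_uv77 h z.2.1 z.2.2,
    sum_sub77 (G := G) (x := x) _ fun y hy => by rw [w77_zero h z.2.1 z.2.2 hy, mul_zero],
    sum_congr (s₁ := filter _ _) rfl (g := fun _ => -24) fun y hy => by
      rw [hoffman77 h hK, if_neg fun e => hK.2 x hx y e (mem_filter.1 hy).2.1]; norm_num,
    hoffman77 h hK, hoffman77 h hK, if_pos hx, if_pos (mem_subtype.1 hz), sum_const, card_cn h z.2.1 z.2.2] at h1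
  simp only [w77_eq h, ← mem_subtype (p := fun y => y ≠ x ∧ ¬G.Adj x y), boole_mul, sum_ite_mem, univ_inter,
    ← mul_sum] at h1
  have h2 : ∑ y ∈ K.subtype _, g60 G x z y ≤ ∑ y ∈ K.subtype _,
      (1 + 3 * (if g60 G x z y = 4 then 1 else 0) - 3 * if y = q then 1 else 0 : ℚ) := sum_le_sum fun y _ => by
    by_cases e : y = q
    · rcases F.val z q with a | a | a
      · rw [a] at hn; norm_num at hn
      · rw [a] at hn; norm_num at hn
      · norm_num [e, a]
    · rcases F.val z y with a | a | a <;> norm_num [e, a]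
  have h3 : (#{y ∈ K.subtype _ | g60 G x z y = 4} : ℚ) ≤ 4 := by
    exact_mod_cast (card_le_card (filter_subset_filter _ (subset_univ _))).trans (F.card4 z).le
  simp only [sum_add_distrib, sum_sub_distrib, ← mul_sum, sum_boole, sum_const, c, filter_eq', hq, if_true,
    card_singleton] at h2
  norm_num at h1 h2
  linarith

theorem good_co21 {x : V} {K : Finset {y // y ≠ x ∧ ¬G.Adj x y}} (hK : Good (g60 G x) K) :
    Co21 G (insert x (K.map (.subtype _))) := by
  refine ⟨by rw [card_insert_of_notMem (by simp), card_map, hK.1], ?_⟩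
  simp only [mem_insert, mem_map, Function.Embedding.coe_subtype]
  rintro _ (rfl | ⟨p, hp, rfl⟩) _ (rfl | ⟨q, hq, rfl⟩) e
  exacts [e.ne rfl, q.2.2 e, p.2.2 e.symm, absurd (hK.2 p hp q hq) (by
    simp [g60, e, cn3_eq_zero h (.inr e), show p ≠ q from fun a => e.ne (by rw [a])]; norm_num)]

open Classical in
theorem card_two {x z : V} (h1 : x ≠ z) (h2 : ¬G.Adj x z) : #{K | Co21 G K ∧ x ∈ K ∧ z ∈ K} = 2 := by
  obtain ⟨K₁, K₂, a, ⟨b1, b2⟩, ⟨c1, c2⟩, d⟩ := (f60 h x).two ⟨z, h1.symm, h2⟩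
  have e : ∀ K : Finset {y // y ≠ x ∧ ¬G.Adj x y}, (insert x (K.map (.subtype _))).subtype _ = K := fun K => by
    ext y
    simpa [y.2.1] using fun _ => y.2.2
  refine card_eq_two.2 ⟨insert x (K₁.map (.subtype _)), insert x (K₂.map (.subtype _)),
    fun f => a (by rw [← e K₁, f, e]), ?_⟩
  ext K
  simp only [mem_filter, mem_univ, true_and, mem_insert, mem_singleton]
  refine ⟨fun ⟨k1, k2, k3⟩ => ?_, ?_⟩
  · rcases d _ (co21_good h k1 k2) (mem_subtype.2 k3) with rfl | rfl
    exacts [.inl (co21_eq k1 k2), .inr (co21_eq k1 k2)]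
  rintro (rfl | rfl)
  exacts [⟨good_co21 h b1, mem_insert_self _ _, mem_insert_of_mem (mem_map_of_mem _ b2)⟩,
    ⟨good_co21 h c1, mem_insert_self _ _, mem_insert_of_mem (mem_map_of_mem _ c2)⟩]

open Classical in
theorem card_six (x : V) : #{K | Co21 G K ∧ x ∈ K} = 6 := by
  have := card_mul_eq_card_mul (s := univ.filter fun K => Co21 G K ∧ x ∈ K)
    (t := (univ : Finset {y // y ≠ x ∧ ¬G.Adj x y})) (fun K z => z.1 ∈ K) (m := 20) (n := 2) (fun K hK => by
      rw [← (co21_good h (mem_filter.1 hK).2.1 (mem_filter.1 hK).2.2).1]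
      exact congrArg card (by ext; simp)) fun z _ => by
      rw [← card_two h z.2.1.symm z.2.2]
      exact congrArg card (by ext; simp [and_assoc])
  rw [card_univ, (f60 h x).card] at this
  omega

open Classical in
theorem exists_steiner77 : Fintype.card {K // Co21 G K} = 22 ∧ ∃ B : Set (Finset {K // Co21 G K}),
    IsSteinerSystem 3 6 B ∧ Nonempty (blockGraph B ≃g G) := by
  have key : ∀ (q : Finset V → Prop) [DecidablePred q] [DecidablePred fun K => Co21 G K ∧ q K],
      #(univ.filter fun K : {K // Co21 G K} => q K) = #{K | Co21 G K ∧ q K} := fun q _ _ => by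
    rw [← card_map (.subtype _)]
    exact congrArg card (by ext; simp [and_comm])
  have c : Fintype.card {K // Co21 G K} = 22 := by
    have := card_mul_eq_card_mul (s := (univ : Finset {K // Co21 G K})) (t := (univ : Finset V)) (fun K z => z ∈ K.1)
      (m := 21) (n := 6) (fun K _ => by rw [← K.2.1]; exact congrArg card (by ext; simp)) fun z _ => by
        exact (key (z ∈ ·)).trans (card_six h z)
    rw [card_univ, card_univ, h.card] at this
    omega
  refine ⟨c, steiner_of_blk (fun x => univ.filter fun K => x ∈ K.1) c h.card (fun x => ?_) (fun x z a b => ?_)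
    fun x z a => disjoint_filter.2 fun K _ b c => K.2.2 x b z c a⟩
  · exact (key (x ∈ ·)).trans (card_six h x)
  · rw [← filter_and]
    exact (key fun K => x ∈ K ∧ z ∈ K).trans (card_two h a b)

end Cfsg.Lib.Srg
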